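import Cfsg.Agent.H564.Near
import Cfsg.Agent.S0205
import Cfsg.Agent.SignalizersComponents.CoprimeBasic

/-!
# Primes dividing the order of the solvable radical (helper564, for S4313)

`adj_two_of_radical` : `R` the solvable radical of `G`, `2 ∣ |G / R|`, `r` an odd prime divisor of `|R|` which is not
adjacent to `2` in the prime graph of `G`. Then every odd prime divisor of `|G / R|` is adjacent to `2`.
(`Q` a Sylow `r`-subgroup of `R`, `N = N_G(Q)`: the involutions of `N` invert `Q`, so `⟨t⟩ C_N(Q)` is normal in `N` and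
`C_N(Q)` has odd order; `N = C_N(Q) C_N(t)` and `C_N(Q) ≤ R`, hence `G = C_N(t) R`.)
-/

set_option autoImplicit false
set_option linter.unusedSectionVars false

namespace Cfsg.Agent.H564.RadCase

open Subgroup Cfsg.Agent.H94.PG

variable {G : Type*} [Group G] [Finite G]

/-- two involutions whose product lies in a subgroup `C` of odd order are conjugate by an element of `C` -/
theorem exists_conj_of_odd {t u : G} (ht : t * t = 1) (hu : u * u = 1) (hodd : Odd (orderOf (t * u))) :
    ∃ k : ℕ, (t * u) ^ k * u * ((t * u) ^ k)⁻¹ = t := by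
  set x := t * u with hx
  obtain ⟨k, hk⟩ := hodd
  have huinv : u⁻¹ = u := inv_eq_of_mul_eq_one_left hu
  have htinv : t⁻¹ = t := inv_eq_of_mul_eq_one_left ht
  have h1 : u * x * u⁻¹ = x⁻¹ := by
    rw [hx, mul_inv_rev, huinv, htinv]
    calc u * (t * u) * u = u * t * (u * u) := by group
      _ = u * t := by rw [hu, mul_one]
  have h2 : ∀ n : ℕ, u * (x ^ n)⁻¹ = x ^ n * u := by
    intro n
    have h3 : u * (x ^ n)⁻¹ * u⁻¹ = x ^ n := by
      rw [← inv_pow, ← conj_pow]
      congr 1
      calc u * x⁻¹ * u⁻¹ = (u * x * u⁻¹)⁻¹ := by group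
        _ = x := by rw [h1, inv_inv]
    calc u * (x ^ n)⁻¹ = (u * (x ^ n)⁻¹ * u⁻¹) * u := by group
      _ = x ^ n * u := by rw [h3]
  refine ⟨k + 1, ?_⟩
  calc x ^ (k + 1) * u * (x ^ (k + 1))⁻¹ = x ^ (k + 1) * (u * (x ^ (k + 1))⁻¹) := by group
    _ = x ^ (k + 1) * (x ^ (k + 1) * u) := by rw [h2]
    _ = x ^ (2 * k + 1) * x * u := by
        rw [← mul_assoc, ← pow_add, ← pow_succ]
        congr 2
        ring
    _ = t := by
        rw [← hk, pow_orderOf_eq_one, one_mul, hx, mul_assoc, hu, mul_one]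

theorem adj_two_of_radical (R : Subgroup G) [hRn : R.Normal] (hRs : Group.IsSolvable ↥R)
    (hRmax : ∀ M : Subgroup G, M.Normal → Group.IsSolvable ↥M → M ≤ R) (hev : 2 ∣ R.index)
    {r : ℕ} (hr : r.Prime) (hr2 : r ≠ 2) (hrR : r ∣ Nat.card ↥R) (hn : ¬ Adj G r 2)
    {s : ℕ} (hs : s.Prime) (hs2 : s ≠ 2) (hsd : s ∣ R.index) : Adj G s 2 := by
  have f1 : Fact r.Prime := ⟨hr⟩
  have f2 : Fact (Nat.Prime 2) := ⟨Nat.prime_two⟩
  have f3 : Fact s.Prime := ⟨hs⟩
  let Q : Sylow r ↥R := default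
  let Q' : Subgroup G := (Q : Subgroup ↥R).map R.subtype
  have hQ' : IsPGroup r ↥Q' := Q.2.map R.subtype
  have hQ1 : Q' ≠ ⊥ := by
    intro h
    have h1 : (Q : Subgroup ↥R) = ⊥ := (Subgroup.map_eq_bot_iff_of_injective _ R.subtype_injective).1 h
    have h2 := Q.dvd_card_of_dvd_card hrR
    rw [h1, Subgroup.card_bot] at h2
    exact hr.one_lt.ne' (Nat.dvd_one.1 h2)
  obtain ⟨q0, hq01⟩ := Subgroup.ne_bot_iff_exists_ne_one.1 hQ1
  have hq0o : r ∣ orderOf (q0 : G) := by
    obtain ⟨k, hk⟩ := hQ' q0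
    have h1 : orderOf q0 ∣ r ^ k := orderOf_dvd_of_pow_eq_one hk
    obtain ⟨j, -, hj⟩ := (Nat.dvd_prime_pow hr).1 h1
    rw [Subgroup.orderOf_coe, hj]
    refine dvd_pow_self r ?_
    rintro rfl
    rw [pow_zero, orderOf_eq_one_iff] at hj
    exact hq01 hj
  -- elements commuting with nontrivial elements of `Q'` have odd order
  have hodd : ∀ q ∈ Q', q ≠ 1 → ∀ y : G, Commute q y → ¬ 2 ∣ orderOf y := by
    intro q hq hq1 y hy h2
    have h3 : r ∣ orderOf q := by
      obtain ⟨k, hk⟩ := hQ' ⟨q, hq⟩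
      have h1 : orderOf (⟨q, hq⟩ : ↥Q') ∣ r ^ k := orderOf_dvd_of_pow_eq_one hk
      rw [Subgroup.orderOf_mk] at h1
      obtain ⟨j, -, hj⟩ := (Nat.dvd_prime_pow hr).1 h1
      rw [hj]
      refine dvd_pow_self r ?_
      rintro rfl
      rw [pow_zero, orderOf_eq_one_iff] at hj
      exact hq1 hj
    exact hn (adj_of_dvd hr Nat.prime_two hr2 hy h3 h2 (orderOf_pos _).ne' (orderOf_pos _).ne')
  let N : Subgroup G := normalizer (Q' : Set G)
  have hNR : N ⊔ R = ⊤ := Sylow.normalizer_sup_eq_top Q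
  have hidx : R.relIndex N = R.index := by
    rw [← Subgroup.relIndex_sup_right, hNR, Subgroup.relIndex_top_right]
  have h2N : 2 ∣ Nat.card ↥N := by
    rw [← hidx] at hev
    exact hev.trans (Subgroup.relIndex_dvd_card R N)
  obtain ⟨t0, ht0⟩ := exists_prime_orderOf_dvd_card' (G := ↥N) 2 h2N
  set t : G := (t0 : G) with htdef
  have htN : t ∈ N := t0.2
  have hto : orderOf t = 2 := by rw [htdef, Subgroup.orderOf_coe, ht0]
  -- involutions of `N` invert `Q'`
  have hinv : ∀ u : G, u ∈ N → orderOf u = 2 → ∀ q ∈ Q', u * q * u⁻¹ = q⁻¹ := by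
    intro u hu hu2
    have hfix : ∀ q ∈ Q', u * q * u⁻¹ = q → q = 1 := by
      intro q hq hqu
      by_contra hq1
      rw [mul_inv_eq_iff_eq_mul] at hqu
      exact hodd q hq hq1 u hqu.symm (by rw [hu2])
    let φ : ↥Q' →* ↥Q' :=
      { toFun := fun a => ⟨u * a * u⁻¹, (mem_normalizer_iff.1 hu a).1 a.2⟩
        map_one' := by
          apply Subtype.ext
          change u * 1 * u⁻¹ = 1
          group
        map_mul' := fun a b => Subtype.ext (by
          change u * (a * b) * u⁻¹ = (u * a * u⁻¹) * (u * b * u⁻¹)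
          group) }
    have hφ : MonoidHom.FixedPointFree φ := by
      intro q hq
      have h1 : u * q * u⁻¹ = q := congrArg Subtype.val hq
      exact Subtype.ext (hfix q q.2 h1)
    have hφ2 : Function.Involutive φ := by
      intro q
      apply Subtype.ext
      change u * (u * q * u⁻¹) * u⁻¹ = q
      have h1 : u * u = 1 := by rw [← pow_two, ← hu2, pow_orderOf_eq_one]
      calc u * (u * q * u⁻¹) * u⁻¹ = (u * u) * q * (u * u)⁻¹ := by group
        _ = q := by rw [h1]; simp
    intro q hq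
    have h1 := congrFun (hφ.coe_eq_inv_of_involutive hφ2) ⟨q, hq⟩
    exact congrArg Subtype.val h1
  let C : Subgroup G := N ⊓ centralizer (Q' : Set G)
  have htt : t * t = 1 := by rw [← pow_two, ← hto, pow_orderOf_eq_one]
  -- `C` has odd order
  have hCodd : ∀ c ∈ C, ¬ 2 ∣ orderOf c := by
    intro c hc
    exact hodd q0 q0.2 (fun h => hq01 (Subtype.ext h)) c (mem_centralizer_iff.1 (mem_inf.1 hc).2 q0 q0.2)
  have hCodd' : Odd (Nat.card ↥C) := by
    rw [← Nat.not_even_iff_odd, even_iff_two_dvd]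
    intro h
    obtain ⟨c, hc⟩ := exists_prime_orderOf_dvd_card' (G := ↥C) 2 h
    refine hCodd c c.2 ?_
    rw [Subgroup.orderOf_coe, hc]
  have hCs : Group.IsSolvable ↥C := S0205.result hCodd'
  -- `N` normalizes `C`
  have hNC : N ≤ normalizer (C : Set G) := by
    intro n hn'
    rw [mem_normalizer_iff]
    have key : ∀ m ∈ N, ∀ c ∈ C, m * c * m⁻¹ ∈ C := by
      intro m hm c hc
      refine mem_inf.2 ⟨mul_mem (mul_mem hm (mem_inf.1 hc).1) (inv_mem hm), mem_centralizer_iff.2 ?_⟩
      intro q hq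
      have h1 : m⁻¹ * q * m ∈ Q' := by
        have := (mem_normalizer_iff.1 (inv_mem hm) q).1 hq
        rwa [inv_inv] at this
      have h2 := mem_centralizer_iff.1 (mem_inf.1 hc).2 _ h1
      calc q * (m * c * m⁻¹) = m * ((m⁻¹ * q * m) * c) * m⁻¹ := by group
        _ = m * (c * (m⁻¹ * q * m)) * m⁻¹ := by rw [h2]
        _ = m * c * m⁻¹ * q := by group
    intro c
    refine ⟨fun hc => key n hn' c hc, fun hc => ?_⟩
    have h1 := key n⁻¹ (inv_mem hn') _ hc
    have h2 : n⁻¹ * (n * c * n⁻¹) * n⁻¹⁻¹ = c := by group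
    rwa [h2] at h1
  -- `C R` is a solvable normal subgroup
  have hCR : C ≤ R := by
    have hs1 : Group.IsSolvable ↥(R ⊔ C) :=
      Cfsg.Agent.SignalizersComponents.CoprimeBasic.isSolvable_sup
        (by rw [Subgroup.normalizer_eq_top]; exact le_top) hRs hCs
    have hRN : ∀ K : Subgroup G, R ≤ K → R ≤ normalizer (K : Set G) := fun K hK => hK.trans le_normalizer
    have hnorm : N ≤ normalizer ((R ⊔ C : Subgroup G) : Set G) := by
      intro x hx
      have h1 := hNC hx
      have h2 : x ∈ normalizer (R : Set G) := by rw [Subgroup.normalizer_eq_top]; trivial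
      rw [Subgroup.mem_normalizer_iff_map_conj_eq] at h1 h2 ⊢
      rw [Subgroup.map_sup, h1, h2]
    have hn2 : (R ⊔ C).Normal := by
      rw [← normalizer_eq_top_iff, eq_top_iff, ← hNR]
      exact sup_le hnorm (hRN _ le_sup_left)
    exact le_sup_right.trans (hRmax _ hn2 hs1)
  -- `N = C C_N(t)`
  let T : Subgroup G := N ⊓ centralizer ({t} : Set G)
  have hNT : N ≤ R ⊔ T := by
    intro n hn'
    -- `u = n t n⁻¹`
    set u : G := n * t * n⁻¹ with hu
    have huN : u ∈ N := mul_mem (mul_mem hn' htN) (inv_mem hn')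
    have huu : u * u = 1 := by
      calc u * u = n * (t * t) * n⁻¹ := by rw [hu]; group
        _ = 1 := by rw [htt]; group
    have hu1 : u ≠ 1 := by
      intro h
      have : t = 1 := by
        calc t = n⁻¹ * u * n := by rw [hu]; group
          _ = 1 := by rw [h]; group
      rw [this, orderOf_one] at hto
      omega
    have huo : orderOf u = 2 := orderOf_eq_prime (by rw [pow_two]; exact huu) hu1
    have htuC : t * u ∈ C := by
      refine mem_inf.2 ⟨mul_mem htN huN, mem_centralizer_iff.2 ?_⟩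
      intro q hq
      have h1 := hinv u huN huo q hq
      have h2 := hinv t htN hto q⁻¹ (inv_mem hq)
      rw [inv_inv] at h2
      have h3 : t * u * q * (t * u)⁻¹ = q := by
        calc t * u * q * (t * u)⁻¹ = t * (u * q * u⁻¹) * t⁻¹ := by group
          _ = q := by rw [h1, h2]
      calc q * (t * u) = (t * u * q * (t * u)⁻¹) * (t * u) := by rw [h3]
        _ = t * u * q := by group
    have hodd' : Odd (orderOf (t * u)) := by
      rw [← Nat.not_even_iff_odd, even_iff_two_dvd]
      exact hCodd _ htuC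
    obtain ⟨k, hk⟩ := exists_conj_of_odd htt huu hodd'
    set c := (t * u) ^ k with hc
    have hcC : c ∈ C := pow_mem htuC k
    have hcn : c * n ∈ T := by
      refine mem_inf.2 ⟨mul_mem (mem_inf.1 hcC).1 hn', ?_⟩
      rw [mem_centralizer_singleton_iff]
      calc c * n * t = (c * (n * t * n⁻¹) * c⁻¹) * (c * n) := by group
        _ = t * (c * n) := by rw [← hu, hk]
    have h1 : n = c⁻¹ * (c * n) := by group
    rw [h1]
    exact mul_mem (inv_mem ((le_sup_left : R ≤ R ⊔ T) (hCR hcC))) ((le_sup_right : T ≤ R ⊔ T) hcn)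
  have htop : T ⊔ R = ⊤ := by
    rw [eq_top_iff, ← hNR]
    exact sup_le (hNT.trans (le_of_eq (sup_comm _ _))) le_sup_right
  have hidx' : R.relIndex T = R.index := by
    rw [← Subgroup.relIndex_sup_right, htop, Subgroup.relIndex_top_right]
  have hsT : s ∣ Nat.card ↥T := by
    rw [← hidx'] at hsd
    exact hsd.trans (Subgroup.relIndex_dvd_card R T)
  obtain ⟨z, hz⟩ := exists_prime_orderOf_dvd_card' (G := ↥T) s hsT
  refine ⟨hs, Nat.prime_two, hs2, z, t, by rw [Subgroup.orderOf_coe, hz], hto, ?_⟩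
  exact mem_centralizer_singleton_iff.1 (mem_inf.1 z.2).2

end Cfsg.Agent.H564.RadCase
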